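import Cfsg.Agent.Lib.Helper84.E6I.E11

/-! # S2175 farm E6I (helper17), piece [E8] the cascade (helper84) -/

set_option autoImplicit false

namespace Cfsg.Agent.Lib.Helper84.E6I

open Cfsg.Lie Cfsg.Agent.Lib.Helper18 Cfsg.Agent.Lib.Helper17 Cfsg.Agent.Lib.Helper36
  Cfsg.Agent.Lib.Helper6 Matrix Cfsg.Agent.Lib.Helper17.E6I

/-- climb: the word moving `r` upwards by the reflections in `al` -/
def E8climb (al : List ℕ) : ℕ → ℕ → List ℕ
  | 0, _ => []
  | fuel + 1, r =>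
    match al.find? (fun i => decide (r < chevE6.reflectRoot i r)) with
    | none => []
    | some i => E8climb al fuel (chevE6.reflectRoot i r) ++ [i]

theorem E8_T1 : ∀ r : Fin 72, (∀ i ∈ E8climb [0,1,2,3,4,5] 40 r.val, i < 6) ∧
    wAct chevE6 (E8climb [0,1,2,3,4,5] 40 r.val) r.val = 71 := by
  decide +kernel

theorem E8_T2 : ∀ r : Fin 72, chevE6.pairing 71 r.val = 0 →
    (∀ i ∈ E8climb [0,2,3,4,5] 40 r.val, i < 6) ∧
    wAct chevE6 (E8climb [0,2,3,4,5] 40 r.val) r.val = 60 ∧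
    wAct chevE6 (E8climb [0,2,3,4,5] 40 r.val) 71 = 71 := by
  decide +kernel

theorem E8_T3 : ∀ r : Fin 72, chevE6.pairing 71 r.val = 0 → chevE6.pairing 60 r.val = 0 →
    (∀ i ∈ E8climb [2,3,4] 40 r.val, i < 6) ∧
    wAct chevE6 (E8climb [2,3,4] 40 r.val) r.val = 44 ∧
    wAct chevE6 (E8climb [2,3,4] 40 r.val) 71 = 71 ∧
    wAct chevE6 (E8climb [2,3,4] 40 r.val) 60 = 60 := by
  decide +kernel

theorem E8_T4 : ∀ r : Fin 72, chevE6.pairing 71 r.val = 0 → chevE6.pairing 60 r.val = 0 →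
    chevE6.pairing 44 r.val = 0 →
    (∀ i ∈ E8climb [3] 40 r.val, i < 6) ∧
    wAct chevE6 (E8climb [3] 40 r.val) r.val = 39 ∧
    wAct chevE6 (E8climb [3] 40 r.val) 71 = 71 ∧
    wAct chevE6 (E8climb [3] 40 r.val) 60 = 60 ∧
    wAct chevE6 (E8climb [3] 40 r.val) 44 = 44 := by
  decide +kernel

theorem E8_T5 : ∀ r : Fin 72, ¬ (chevE6.pairing 71 r.val = 0 ∧ chevE6.pairing 60 r.val = 0 ∧
    chevE6.pairing 44 r.val = 0 ∧ chevE6.pairing 39 r.val = 0) := by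
  decide +kernel

theorem E8_F2 : ([71, 60].map (wAct chevE6 [2,3,1])).Perm [68, 66] := by decide +kernel

theorem E8_F3 : ([71, 60, 44].map (wAct chevE6 [0,2,3,1,0])).Perm [55, 65, 67] := by decide +kernel

theorem E8_F4 : ([71, 60, 44, 39].map (wAct chevE6 [5,0,2,3,4,3,2,1,3,0,2,0])).Perm [42, 53, 37, 46] := by
  decide +kernel

/-- pairwise orthogonal roots -/
def E8ok (O : List ℕ) : Prop := O.Pairwise e6orth ∧ ∀ o ∈ O, o < 72

/-- the conclusion -/
def E8C (O : List ℕ) : Prop := ∃ L : List ℕ, (∀ i ∈ L, i < 6) ∧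
      ((O.map (wAct chevE6 L)).Perm [71] ∨ (O.map (wAct chevE6 L)).Perm [68, 66] ∨
        (O.map (wAct chevE6 L)).Perm [55, 65, 67] ∨ (O.map (wAct chevE6 L)).Perm [42, 53, 37, 46])

theorem E8ok_map {O : List ℕ} (h : E8ok O) {L : List ℕ} (hL : ∀ i ∈ L, i < 6) :
    E8ok (O.map (wAct chevE6 L)) := by
  have hT := (tabs2_of_mem E11_hD).tab
  have hP := pairTab_of_mem E11_hD
  constructor
  · rw [List.pairwise_map]
    refine h.1.imp_of_mem ?_
    intro a b ha hb hab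
    have := hP.wAct hT hL (h.2 a ha) (h.2 b hb)
    exact this.trans hab
  · intro o ho
    obtain ⟨x, hx, rfl⟩ := List.mem_map.1 ho
    exact hT.wAct_lt hL (h.2 x hx)

theorem E8C_of_map {O L1 : List ℕ} (hL1 : ∀ i ∈ L1, i < 6) (h : E8C (O.map (wAct chevE6 L1))) :
    E8C O := by
  obtain ⟨L2, hL2, h⟩ := h
  have e : (O.map (wAct chevE6 L1)).map (wAct chevE6 L2) = O.map (wAct chevE6 (L2 ++ L1)) := by
    rw [List.map_map]
    apply List.map_congr_left
    intro x _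
    simp [wAct_append]
  rw [e] at h
  refine ⟨L2 ++ L1, ?_, h⟩
  intro i hi
  rcases List.mem_append.1 hi with hi | hi
  · exact hL2 i hi
  · exact hL1 i hi

theorem E8_lvl4 (R : List ℕ) (h : E8ok (71 :: 60 :: 44 :: 39 :: R)) :
    E8C (71 :: 60 :: 44 :: 39 :: R) := by
  cases R with
  | nil => exact ⟨_, by decide, Or.inr (Or.inr (Or.inr E8_F4))⟩
  | cons o R =>
    exfalso
    obtain ⟨p1, p2⟩ := List.pairwise_cons.1 h.1
    obtain ⟨q1, q2⟩ := List.pairwise_cons.1 p2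
    obtain ⟨r1, r2⟩ := List.pairwise_cons.1 q2
    obtain ⟨s1, -⟩ := List.pairwise_cons.1 r2
    exact E8_T5 ⟨o, h.2 o (by simp)⟩ ⟨p1 o (by simp), q1 o (by simp), r1 o (by simp), s1 o (by simp)⟩

theorem E8_lvl3 (R : List ℕ) (h : E8ok (71 :: 60 :: 44 :: R)) : E8C (71 :: 60 :: 44 :: R) := by
  cases R with
  | nil => exact ⟨_, by decide, Or.inr (Or.inr (Or.inl E8_F3))⟩
  | cons o R =>
    obtain ⟨p1, p2⟩ := List.pairwise_cons.1 h.1
    obtain ⟨q1, q2⟩ := List.pairwise_cons.1 p2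
    obtain ⟨r1, -⟩ := List.pairwise_cons.1 q2
    obtain ⟨hW, eo, e71, e60, e44⟩ := E8_T4 ⟨o, h.2 o (by simp)⟩ (p1 o (by simp)) (q1 o (by simp))
      (r1 o (by simp))
    have hok := E8ok_map h hW
    apply E8C_of_map hW
    rw [List.map_cons, List.map_cons, List.map_cons, List.map_cons, e71, e60, e44, eo] at hok ⊢
    exact E8_lvl4 _ hok

theorem E8_lvl2 (R : List ℕ) (h : E8ok (71 :: 60 :: R)) : E8C (71 :: 60 :: R) := by
  cases R with
  | nil => exact ⟨_, by decide, Or.inr (Or.inl E8_F2)⟩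
  | cons o R =>
    obtain ⟨p1, p2⟩ := List.pairwise_cons.1 h.1
    obtain ⟨q1, -⟩ := List.pairwise_cons.1 p2
    obtain ⟨hW, eo, e71, e60⟩ := E8_T3 ⟨o, h.2 o (by simp)⟩ (p1 o (by simp)) (q1 o (by simp))
    have hok := E8ok_map h hW
    apply E8C_of_map hW
    rw [List.map_cons, List.map_cons, List.map_cons, e71, e60, eo] at hok ⊢
    exact E8_lvl3 _ hok

theorem E8_lvl1 (R : List ℕ) (h : E8ok (71 :: R)) : E8C (71 :: R) := by
  cases R with
  | nil => exact ⟨[], by simp, Or.inl (by simp)⟩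
  | cons o R =>
    obtain ⟨p1, -⟩ := List.pairwise_cons.1 h.1
    obtain ⟨hW, eo, e71⟩ := E8_T2 ⟨o, h.2 o (by simp)⟩ (p1 o (by simp))
    have hok := E8ok_map h hW
    apply E8C_of_map hW
    rw [List.map_cons, List.map_cons, e71, eo] at hok ⊢
    exact E8_lvl2 _ hok

/-- [E8] -/
theorem cascade (O : List ℕ) (hO : O.Pairwise e6orth) (hb : ∀ o ∈ O, o < 72) (hne : O ≠ []) :
    ∃ L : List ℕ, (∀ i ∈ L, i < 6) ∧
      ((O.map (wAct chevE6 L)).Perm [71] ∨ (O.map (wAct chevE6 L)).Perm [68, 66] ∨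
        (O.map (wAct chevE6 L)).Perm [55, 65, 67] ∨ (O.map (wAct chevE6 L)).Perm [42, 53, 37, 46]) := by
  cases O with
  | nil => exact absurd rfl hne
  | cons o R =>
    have h : E8ok (o :: R) := ⟨hO, hb⟩
    obtain ⟨hW, eo⟩ := E8_T1 ⟨o, hb o (by simp)⟩
    have hok := E8ok_map h hW
    apply E8C_of_map hW
    rw [List.map_cons, eo] at hok ⊢
    exact E8_lvl1 _ hok

end Cfsg.Agent.Lib.Helper84.E6I
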